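import Cfsg.Agent.Lib.CG.Glue2

set_option autoImplicit false
set_option maxRecDepth 100000
set_option Elab.async false

namespace Cfsg.Agent.CG.A6

noncomputable def t0 : ℕ := 0x282018001008
noncomputable def t1 : ℕ := 0x282018080010
noncomputable def t2 : ℕ := 0x82820181000
noncomputable def t3 : ℕ := 0x201810082800
noncomputable def t4 : ℕ := 0x1028201808
noncomputable def t5 : ℕ := 0x181008200028
noncomputable def t6 : ℕ := 0x200810281800
noncomputable def t7 : ℕ := 0x102808182000
noncomputable def t8 : ℕ := 0x81828002010
noncomputable def t9 : ℕ := 0x180820002810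
noncomputable def t10 : ℕ := 0x100828201800
noncomputable def t11 : ℕ := 0x181008282000
noncomputable def t12 : ℕ := 0x181028200800
noncomputable def t13 : ℕ := 0x182010280800
noncomputable def t14 : ℕ := 0x102028180800
noncomputable def t15 : ℕ := 0x102818200800
noncomputable def t16 : ℕ := 0x201018280800
noncomputable def t17 : ℕ := 0x201018280800
noncomputable def t18 : ℕ := 0x102818200800
noncomputable def t19 : ℕ := 0x202810180800
noncomputable def t20 : ℕ := 0x202808101800
noncomputable def t21 : ℕ := 0x202818000810
noncomputable def t22 : ℕ := 0x282018100800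
noncomputable def tc0t17 : ℕ := 0x48d037c0221033b010201080
noncomputable def tc0t18 : ℕ := 0x51d0684041a0219010301080
noncomputable def tc0t19 : ℕ := 0x455022903720573010401080
noncomputable def tc0t20 : ℕ := 0x23401050532044b034101080
noncomputable def tc0t21 : ℕ := 0x46d03640412035b021001010
noncomputable def tc0d : ℕ := 0xa400990091008900a800000
noncomputable def tc1t17 : ℕ := 0x12a01b4008301b900880
noncomputable def tc1t18 : ℕ := 0x22301220084022100880
noncomputable def tc1t19 : ℕ := 0x29b02440119008200880
noncomputable def tc1t20 : ℕ := 0x293025401ca011000810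
noncomputable def tc1d : ℕ := 0x92008a009900a000000
noncomputable def tc2t17 : ℕ := 0xa100eb004200480
noncomputable def tc2t18 : ℕ := 0x11a0099004300480
noncomputable def tc2t19 : ℕ := 0x11200f3009000410
noncomputable def tc2d : ℕ := 0x910089009800000
noncomputable def tc3t17 : ℕ := 0x4c007200210
noncomputable def tc3t18 : ℕ := 0x89004800220
noncomputable def tc3d : ℕ := 0x48004400000
noncomputable def mc0c : ℕ := 0x201828100800
noncomputable def mc0p : ℕ := 0x110000
noncomputable def mc0l : ℕ := 0x70405010000
noncomputable def mc0i : ℕ := 0x60504000100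
noncomputable def mc0q : ℕ := 0x30504020100
noncomputable def mc1c : ℕ := 0x1028201808
noncomputable def mc1p : ℕ := 0x21000
noncomputable def mc1l : ℕ := 0xb0a0b0a00
noncomputable def mc1i : ℕ := 0xa0b0a0b00
noncomputable def mc1q : ℕ := 0x30201040000
noncomputable def mc2c : ℕ := 0x20102818
noncomputable def mc2p : ℕ := 0x2000
noncomputable def mc2l : ℕ := 0xc0d0c00
noncomputable def mc2i : ℕ := 0xc0e0c00
noncomputable def mc2q : ℕ := 0x10300020000
noncomputable def mc3c : ℕ := 0x282010
noncomputable def mc3p : ℕ := 0x0
noncomputable def mc3l : ℕ := 0x100f00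
noncomputable def mc3i : ℕ := 0xf1000
noncomputable def mc3q : ℕ := 0x20100000000

end Cfsg.Agent.CG.A6
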