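import Cfsg.Agent.Lib.Grp.A6.C0

set_option autoImplicit false
set_option maxRecDepth 100000
set_option Elab.async false

namespace Cfsg.Agent.CG.A6

theorem tabOK : TabOK 6 8 app 4 22 inv slp where
  w_pos := by decide
  base := allRange_of_allL (l := [0,1,2,3]) (by decide +kernel) (allL_cons (allLt_of_allRange c0) (allL_cons (allLt_of_allRange c1) (allL_cons (allLt_of_allRange c2) (allL_cons (allLt_of_allRange c3) (allL_nil _)))))
  defs := allRange_of_allL (l := [4,5,6,7,8,9,10,11,12,13,14,15,16,17,18,19,20,21]) (by decide +kernel) (allL_cons c4 (allL_cons c5 (allL_cons c6 (allL_cons c7 (allL_cons c8 (allL_cons c9 (allL_cons c10 (allL_cons c11 (allL_cons c12 (allL_cons c13 (allL_cons c14 (allL_cons c15 (allL_cons c16 (allL_cons c17 (allL_cons c18 (allL_cons c19 (allL_cons c20 (allL_cons c21 (allL_nil _)))))))))))))))))))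
  lt := by decide +kernel
  triv := appT_triv (by decide +kernel)
  trivk := c22

/-- The group generated by the basic tables. -/
noncomputable abbrev PG : Subgroup (Equiv.Perm (Fin 6)) := tabGroup 6 8 app 4

noncomputable def act : Act PG (Fin 6) := tabOK.act

theorem chain : ChainOK act mc [] :=
  chainOK_of_chk act mc [] (by simp) (okc_of_okcb c27) c28
  (allL_cons c23 (allL_cons c24 (allL_cons c25 (allL_cons c26 (allL_nil _)))))

theorem bounds : Bounds tcR tcS 360 :=
  (show prodTC tc = 360 by decide +kernel) ▸ bounds_of_chain c37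
  (allL_cons c29 (allL_cons c31 (allL_cons c33 (allL_cons c35 (allL_nil _)))))
  (allL_cons c30 (allL_cons c32 (allL_cons c34 (allL_cons c36 (allL_nil _)))))

theorem rels : ∀ v ∈ tcR, ev act.gen v = 1 :=
  tabOK.rels (allL_cons c38 (allL_cons c39 (allL_cons c40 (allL_cons c41 (allL_cons c42 (allL_cons c43 (allL_cons c44 (allL_cons c45 (allL_cons c46 (allL_cons c47 (allL_cons c48 (allL_cons c49 (allL_cons c50 (allL_nil _))))))))))))))

theorem clS : cl act.gen tcS = ⊤ :=
  tabOK.cl_eq_top_of_words (Ws := inW) (by decide +kernel) (allRange_of_allL (l := [0,1,2,3]) (by decide +kernel) (allL_cons c51 (allL_cons c52 (allL_cons c53 (allL_cons c54 (allL_nil _))))))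

theorem prod_mc : prodN mc = 360 := by decide +kernel

theorem card_le : Nat.card PG ≤ prodN mc := prod_mc ▸ (bounds.card_le rels clS).2

theorem card : Nat.card PG = 360 := prod_mc ▸ chain.card_eq card_le

theorem base : act.IsBase bs := (show bases mc = bs from (eqL_iff _ _).1 (by decide +kernel)) ▸ chain.isBase card_le

theorem hinv : ∀ a, act.gen (inv a) = (act.gen a)⁻¹ :=
  tabOK.inv (by decide) base (by decide +kernel) (by decide +kernel)


end Cfsg.Agent.CG.A6
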